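import Cfsg.Agent.LieBlocks.Basic
import Cfsg.Agent.Opp34.Crit

/-!
# Groups with trivially intersecting Sylow subgroups

If distinct Sylow `p`-subgroups meet trivially and no nontrivial `p'`-automorphism fixes a Sylow
subgroup elementwise, then radical `p`-subgroups have central `p'`-centralisers.
-/

set_option autoImplicit false

namespace Cfsg.Agent.LieBlocks

open Cfsg.Agent.SLBlocks Cfsg.Agent.Opp34

theorem centralCentralizers_of_ti {K : Type*} [Group K] [Finite K] {p : ℕ} [Fact p.Prime]
    (hTI : ∀ S T : Sylow p K, S ≠ T → (S : Subgroup K) ⊓ (T : Subgroup K) = ⊥) (hA : AutCrit p K) :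
    CentralCentralizers p K := by
  intro D hD hne hrad g hg hord
  obtain ⟨S, hS⟩ := hD.exists_le_sylow
  have hSD : (S : Subgroup K) ≤ D := by
    refine radical_absorbs hD S.2 (fun x hx => ?_) hrad
    refine Sylow.smul_eq_iff_mem_normalizer.1 ?_
    by_contra h
    refine hne (le_bot_iff.1 (le_trans (le_inf (fun d hd => ?_) hS) (hTI _ _ h).le))
    have h1 := (Subgroup.mem_normalizer_iff.1 (inv_mem hx) d).1 hd
    rw [inv_inv] at h1
    exact ⟨x⁻¹ * d * x, hS h1, show x * (x⁻¹ * d * x) * x⁻¹ = d by group⟩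
  have hα : MulAut.conj g = 1 := by
    refine hA.eq_one _ (fun h => hord (h.trans (orderOf_map_dvd MulAut.conj g))) S fun x hx => ?_
    rw [MulAut.conj_apply, ← Subgroup.mem_centralizer_iff.1 hg x (hSD hx), mul_inv_cancel_right]
  rw [Subgroup.mem_center_iff]
  intro x
  have h1 : g * x * g⁻¹ = x := DFunLike.congr_fun hα x
  exact (mul_inv_eq_iff_eq_mul.1 h1).symm

end Cfsg.Agent.LieBlocks
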