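import Cfsg.Agent.LieBlocks.RankOne
import Cfsg.Agent.Opp34.Suzuki
import Cfsg.Agent.Suzuki.Sylow

/-!
# Central centralisers of radical `2`-subgroups of the Suzuki groups
-/

set_option autoImplicit false
set_option linter.style.haveILetI false

namespace Cfsg.Agent.LieBlocks

open Cfsg.Agent.SLBlocks Cfsg.Agent.Opp34 Cfsg.Agent.Suzuki
open MulAction

theorem suzuki_ti {F : Type} [Field F] [Fintype F] {m : ℕ} [SuzukiField F m]
    (S T : Sylow 2 (Cfsg.Sz F m)) (hST : S ≠ T) :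
    (S : Subgroup (Cfsg.Sz F m)) ⊓ (T : Subgroup (Cfsg.Sz F m)) = ⊥ := by
  haveI : Fact (Nat.Prime 2) := ⟨Nat.prime_two⟩
  have key : ∀ g x : Cfsg.Sz F m, x ∈ ((g • unipSylow F m : Sylow 2 (Cfsg.Sz F m)) : Subgroup (Cfsg.Sz F m)) →
      x • g • oInf F m = g • oInf F m ∧ (x ≠ 1 → ∀ q, x • q = q → q = g • oInf F m) := by
    rintro g x ⟨u, ⟨a, b, rfl⟩, rfl⟩
    simp only [MulDistribMulAction.toMonoidEnd_apply, MulDistribMulAction.toMonoidHom_apply,
      MulAut.smul_def, MulAut.conj_apply]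
    refine ⟨by rw [mul_smul, mul_smul, inv_smul_smul, gT_smul_oInf], fun hne q hq => ?_⟩
    rw [mul_smul, mul_smul, smul_eq_iff_eq_inv_smul] at hq
    have hab : a ≠ 0 ∨ b ≠ 0 := by
      by_contra h
      simp only [not_or, not_not] at h
      exact hne (by rw [h.1, h.2, gT_zero, mul_one, mul_inv_cancel])
    rw [← fix_of_unip hab hq, smul_inv_smul]
  obtain ⟨g, hg⟩ := MulAction.exists_smul_eq (Cfsg.Sz F m) (unipSylow F m) S
  obtain ⟨h, hh⟩ := MulAction.exists_smul_eq (Cfsg.Sz F m) (unipSylow F m) T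
  rw [Subgroup.eq_bot_iff_forall]
  intro x hx
  by_contra hne
  refine hST ?_
  rw [← hg, ← hh] at hx ⊢
  have h1 := (key g x hx.1).1
  have h2 := (key h x hx.2).2 hne _ h1
  have h3 : h⁻¹ * g ∈ Subgroup.normalizer (unip F m : Set (Cfsg.Sz F m)) := by
    rw [normalizer_unip, mem_stabilizer_iff, mul_smul, h2, inv_smul_smul]
  have h4 : (h⁻¹ * g) • unipSylow F m = unipSylow F m :=
    Sylow.smul_eq_iff_mem_normalizer.2 h3
  conv_rhs => rw [← h4, ← mul_smul, mul_inv_cancel_left]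

theorem suzuki_cc {G : Type*} [Group G] (h : Cfsg.Lie.IsoSuzuki G) : CentralCentralizers 2 G := by
  obtain ⟨F, _, _, m, hm, hF, ⟨e⟩⟩ := h
  haveI : SuzukiField F m := ⟨hm, hF⟩
  exact CentralCentralizers.congr (centralCentralizers_of_ti suzuki_ti suzuki_sz_crit.1)
    (e.trans (szEquivLie F m).symm)

end Cfsg.Agent.LieBlocks
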